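import Mathlib
import Cfsg.Prelude.Def_SporadicB
import Cfsg.Prelude.Def_Transfer
set_option linter.all false

/-!
# A self-centralising normal extraspecial 2-subgroup of an involution centraliser: 2-central
-/

set_option autoImplicit false

namespace Cfsg.Agent.H861.TwoCentral

open Subgroup Cfsg

/-- `t` central of order two in a group whose centre of order two contains ... -/
theorem mem_Q {G : Type*} [Group G] (t : G)
    (Q : Subgroup (centralizer ({t} : Set G)))
    (h2c : centralizer (Q : Set (centralizer ({t} : Set G))) ≤ Q) (htC : t ∈ centralizer ({t} : Set G)) :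
    (⟨t, htC⟩ : centralizer ({t} : Set G)) ∈ Q := by
  apply h2c
  rw [mem_centralizer_iff]
  intro x _
  exact Subtype.ext (mem_centralizer_singleton_iff.1 x.2)

/-- The elements of `C` which centralise `Q` are `1` and `t`. -/
theorem centralizer_pair {G : Type*} [Group G] (t : G) (ht : orderOf t = 2)
    (Q : Subgroup (centralizer ({t} : Set G))) (hc : Nat.card (center Q) = 2)
    (h2c : centralizer (Q : Set (centralizer ({t} : Set G))) ≤ Q) (x : G) (hx : x ∈ centralizer ({t} : Set G))
    (hxQ : (⟨x, hx⟩ : centralizer ({t} : Set G)) ∈ centralizer (Q : Set (centralizer ({t} : Set G)))) :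
    x = 1 ∨ x = t := by
  have htC : t ∈ centralizer ({t} : Set G) := mem_centralizer_singleton_iff.2 rfl
  have htQ := mem_Q t Q h2c htC
  have hxQ' := h2c hxQ
  have h1 : (⟨⟨t, htC⟩, htQ⟩ : Q) ∈ center Q := by
    rw [mem_center_iff]
    intro g
    exact Subtype.ext (Subtype.ext (mem_centralizer_singleton_iff.1 g.1.2))
  have h2 : (⟨⟨x, hx⟩, hxQ'⟩ : Q) ∈ center Q := by
    rw [mem_center_iff]
    intro g
    exact Subtype.ext (mem_centralizer_iff.1 hxQ g.1 g.2)
  have hfin : Finite (center Q) := Nat.finite_of_card_ne_zero (by rw [hc]; norm_num)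
  by_contra hcon
  push Not at hcon
  obtain ⟨hx1, hxt⟩ := hcon
  have ht1 : t ≠ 1 := by
    rintro rfl
    rw [orderOf_one] at ht
    exact absurd ht (by norm_num)
  have hinj : Function.Injective (![⟨1, one_mem _⟩, ⟨_, h1⟩, ⟨_, h2⟩] : Fin 3 → center Q) := by
    intro i j hij
    fin_cases i <;> fin_cases j <;> simp [Subtype.ext_iff] at hij ⊢
    · exact absurd hij.symm ht1
    · exact absurd hij.symm hx1
    · exact absurd hij ht1
    · exact absurd hij.symm hxt
    · exact absurd hij hx1
    · exact absurd hij hxt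
  have h3 := Nat.card_le_card_of_injective _ hinj
  rw [hc, Nat.card_fin] at h3
  omega

theorem isTwoCentral {G : Type*} [Group G] [Finite G] (t : G) (ht : orderOf t = 2)
    (Q : Subgroup (centralizer ({t} : Set G))) [Q.Normal] (hQ : IsPGroup 2 Q) (hc : Nat.card (center Q) = 2)
    (h2c : centralizer (Q : Set (centralizer ({t} : Set G))) ≤ Q) :
    IsTwoCentralInvolution t := by
  have htC : t ∈ centralizer ({t} : Set G) := mem_centralizer_singleton_iff.2 rfl
  have htQ := mem_Q t Q h2c htC
  have h2p : Fact (Nat.Prime 2) := ⟨Nat.prime_two⟩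
  obtain ⟨S⟩ : Nonempty (Sylow 2 (centralizer ({t} : Set G))) := inferInstance
  have hQS : Q ≤ (S : Subgroup (centralizer ({t} : Set G))) := hQ.le_sylow_of_normal S
  obtain ⟨P, hP⟩ := (S.2.map (centralizer ({t} : Set G)).subtype).exists_le_sylow
  set S' : Subgroup G := (S : Subgroup (centralizer ({t} : Set G))).map (centralizer ({t} : Set G)).subtype with hS'
  have hS'C : S' ≤ centralizer ({t} : Set G) := by
    rintro _ ⟨x, -, rfl⟩
    exact x.2
  have htS' : t ∈ S' := ⟨⟨t, htC⟩, hQS htQ, rfl⟩
  -- `P ∩ C = S'`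
  have hPC : (P : Subgroup G) ⊓ centralizer ({t} : Set G) ≤ S' := by
    intro x hx
    obtain ⟨hxP, hxC⟩ := mem_inf.1 hx
    have h1 : IsPGroup 2 ((P : Subgroup G).subgroupOf (centralizer ({t} : Set G))) :=
      P.2.comap_of_injective _ (centralizer ({t} : Set G)).subtype_injective
    have h2 : (S : Subgroup (centralizer ({t} : Set G))) ≤ (P : Subgroup G).subgroupOf (centralizer ({t} : Set G)) := by
      intro s hs
      rw [mem_subgroupOf]
      exact hP ⟨s, hs, rfl⟩
    have h3 := S.3 h1 h2
    exact ⟨⟨x, hxC⟩, h3 ▸ (mem_subgroupOf.2 hxP : (⟨x, hxC⟩ : centralizer ({t} : Set G)) ∈ _), rfl⟩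
  have hPS : (P : Subgroup G) ≤ S' := by
    by_contra hcon
    have hnil : Group.IsNilpotent (P : Subgroup G) := P.2.isNilpotent
    have hlt : S'.subgroupOf (P : Subgroup G) < ⊤ := by
      rw [lt_top_iff_ne_top]
      intro h
      exact hcon (subgroupOf_eq_top.1 h)
    have hlt2 := Group.normalizerCondition_of_isNilpotent _ hlt
    obtain ⟨x, hxn, hxS⟩ := SetLike.exists_of_lt hlt2
    apply hxS
    rw [mem_subgroupOf]
    apply hPC
    refine mem_inf.2 ⟨x.2, ?_⟩
    -- `x t x⁻¹ ∈ Z(S')`
    have hconj : ∀ s ∈ S', (x : G) * s * (x : G)⁻¹ ∈ S' := by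
      intro s hs
      have h1 := (mem_normalizer_iff.1 hxn (⟨s, hP hs⟩ : (P : Subgroup G))).1 (mem_subgroupOf.2 hs)
      exact mem_subgroupOf.1 h1
    have hconj' : ∀ s ∈ S', (x : G)⁻¹ * s * (x : G) ∈ S' := by
      intro s hs
      have h1 := (mem_normalizer_iff''.1 hxn (⟨s, hP hs⟩ : (P : Subgroup G))).1 (mem_subgroupOf.2 hs)
      exact mem_subgroupOf.1 h1
    have h1 := hconj t htS'
    have h2 := hS'C h1
    have h3 : (⟨(x : G) * t * (x : G)⁻¹, h2⟩ : centralizer ({t} : Set G)) ∈
        centralizer (Q : Set (centralizer ({t} : Set G))) := by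
      rw [mem_centralizer_iff]
      intro q hq
      apply Subtype.ext
      show (q : G) * ((x : G) * t * (x : G)⁻¹) = (x : G) * t * (x : G)⁻¹ * q
      have h4 : (q : G) ∈ S' := ⟨q, hQS hq, rfl⟩
      have h5 := hS'C (hconj' _ h4)
      have h6 := mem_centralizer_singleton_iff.1 h5
      calc (q : G) * ((x : G) * t * (x : G)⁻¹) = x * ((x : G)⁻¹ * q * x * t) * (x : G)⁻¹ := by group
        _ = x * (t * ((x : G)⁻¹ * q * x)) * (x : G)⁻¹ := by rw [h6]
        _ = (x : G) * t * (x : G)⁻¹ * q := by group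
    rcases centralizer_pair t ht Q hc h2c _ h2 h3 with h | h
    · exfalso
      have h7 : t = 1 := by
        have : t = (x : G)⁻¹ * ((x : G) * t * (x : G)⁻¹) * x := by group
        rw [this, h]; group
      rw [h7, orderOf_one] at ht
      exact absurd ht (by norm_num)
    · rw [mem_centralizer_singleton_iff]
      exact mul_inv_eq_iff_eq_mul.1 h
  refine ⟨ht, P, hP htS', fun x hx => ?_⟩
  exact mem_centralizer_singleton_iff.1 (hS'C (hPS hx))

end Cfsg.Agent.H861.TwoCentral
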